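import Cfsg.Agent.SharpTwo59.Table

/-! Kernel checks on the table. -/

set_option autoImplicit false

namespace CfsgLib.SharpTwo59

abbrev Q := ℕ × ℕ × ℕ × ℕ

def mulQ (a b : Q) : Q :=
  ((a.1 * b.1 + a.2.1 * b.2.2.1) % 59, (a.1 * b.2.1 + a.2.1 * b.2.2.2) % 59,
   (a.2.2.1 * b.1 + a.2.2.2 * b.2.2.1) % 59, (a.2.2.1 * b.2.1 + a.2.2.2 * b.2.2.2) % 59)

def scaleQ (c : ℕ) (a : Q) : Q := (c * a.1 % 59, c * a.2.1 % 59, c * a.2.2.1 % 59, c * a.2.2.2 % 59)

def genA : Q := (0, 58, 1, 0)
def genB : Q := (9, 15, 49, 49)
def getL (j : ℕ) : Q := regL.getD j (1, 0, 0, 1)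

def memQ (a : Q) : Bool := regL.any fun b => decide (a = b)

def checkClosed : Bool := regL.all fun s => memQ (mulQ s genA) && memQ (mulQ s genB)

def checkParent : Bool := (List.range 120).all fun k =>
  if k = 0 then decide (getL 0 = (1, 0, 0, 1))
  else let q := regPar.getD k (0, 0)
    decide (q.1 < k) && decide (getL k = mulQ (getL q.1) (if q.2 = 0 then genA else genB))

def checkWit : Bool := (List.range 59).all fun a => (List.range 59).all fun b =>
  if a = 0 ∧ b = 0 then true
  else let q := (regW.getD a []).getD b (0, 0)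
    let h := scaleQ (4 ^ q.1 % 59) (getL q.2)
    decide (q.1 < 29) && decide (q.2 < 120) && decide (h.1 = a) && decide (h.2.2.1 = b)

def scalars : List ℕ := (List.range 29).map fun i => 4 ^ i % 59

/-- `det (c s - 1)` vanishes only for the identity. -/
def checkFree : Bool := scalars.all fun c => regL.all fun s =>
  let h := scaleQ c s
  decide (h = (1, 0, 0, 1)) ||
    decide ((h.1 + 58) * (h.2.2.2 + 58) % 59 ≠ h.2.1 * h.2.2.1 % 59)

theorem regL_length : regL.length = 120 := by decide +kernel
theorem checkClosed_true : checkClosed = true := by decide +kernel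
theorem checkParent_true : checkParent = true := by decide +kernel
theorem checkWit_true : checkWit = true := by decide +kernel
theorem checkFree_true : checkFree = true := by decide +kernel

end CfsgLib.SharpTwo59
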